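import Mathlib
import Cfsg.Agent.Lib.Helper74.O720.Defs

set_option autoImplicit false

/-! FARM O720 (helper74): piece TF (transfer), proved by helper69. -/

namespace Cfsg.Agent.Lib.Helper74.O720

variable {G : Type*} [Group G] [Finite G] [IsSimpleGroup G]

open scoped IsMulCommutative in
theorem TF (hnc : ¬ IsMulCommutative G) {p : ℕ} [Fact p.Prime] (P : Sylow p G)
    (hPc : ∀ x ∈ (P : Subgroup G), ∀ y ∈ (P : Subgroup G), x * y = y * x) (u : G) (hu : u ∈ (P : Subgroup G))
    (hc : ∀ n ∈ Nz (P : Subgroup G), n * u = u * n) : u = 1 := by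
  have hcomm : IsMulCommutative (P : Subgroup G) := ⟨⟨fun a b => Subtype.ext (hPc a a.2 b b.2)⟩⟩
  have key : ∀ (k : ℕ) (g₀ : G), g₀⁻¹ * u ^ k * g₀ ∈ (P : Subgroup G) → g₀⁻¹ * u ^ k * g₀ = u ^ k := by
    intro k g₀ h
    obtain ⟨n, hn, h'⟩ := P.conj_eq_normalizer_conj_of_mem (u ^ k) g₀ ((P : Subgroup G).pow_mem hu k) h
    have h1 : Commute n (u ^ k) := (show Commute n u from hc n hn).pow_right k
    rw [h']
    exact Commute.inv_mul_cancel h1
  let φ : G →* (P : Subgroup G) := MonoidHom.transfer (MonoidHom.id (P : Subgroup G))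
  have hφ : φ u = ⟨u ^ (P : Subgroup G).index, MonoidHom.transfer_eq_pow_aux u key⟩ :=
    MonoidHom.transfer_eq_pow _ _ key
  rcases (φ.normal_ker).eq_bot_or_eq_top with hb | ht
  · exfalso
    apply hnc
    have hinj : Function.Injective φ := (MonoidHom.ker_eq_bot_iff φ).mp hb
    refine ⟨⟨fun a b => hinj ?_⟩⟩
    rw [map_mul, map_mul]
    exact mul_comm _ _
  · have h1 : φ u = 1 := by
      have : u ∈ φ.ker := by rw [ht]; trivial
      exact this
    rw [hφ] at h1
    have h2 : u ^ (P : Subgroup G).index = 1 := congrArg Subtype.val h1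
    have h3 : orderOf u ∣ (P : Subgroup G).index := orderOf_dvd_of_pow_eq_one h2
    obtain ⟨k, hk⟩ := (P.2 ⟨u, hu⟩)
    have h4 : u ^ p ^ k = 1 := by simpa using congrArg Subtype.val hk
    have h5 : orderOf u ∣ p ^ k := orderOf_dvd_of_pow_eq_one h4
    have hcop : Nat.Coprime (p ^ k) (P : Subgroup G).index :=
      Nat.Coprime.pow_left k ((Nat.Prime.coprime_iff_not_dvd Fact.out).mpr P.not_dvd_index)
    have h6 : orderOf u ∣ 1 := by
      have := Nat.dvd_gcd h5 h3
      rwa [hcop.gcd_eq_one] at this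
    exact orderOf_eq_one_iff.mp (Nat.dvd_one.mp h6)

end Cfsg.Agent.Lib.Helper74.O720
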