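import Mathlib
import Cfsg.Agent.Lib.Helper74.O720.Defs

set_option autoImplicit false

/-! FARM O720 (helper74): piece L4 (parity of an involution on 10 points), proved by helper69. -/

namespace Cfsg.Agent.Lib.Helper74.O720

theorem L4 {α : Type*} [Fintype α] [DecidableEq α] (hα : Fintype.card α = 10) (σ : Equiv.Perm α)
    (h2 : σ * σ = 1) (hs : Equiv.Perm.sign σ = 1)
    (h3 : 3 ≤ (Finset.univ.filter fun x => σ x = x).card) :
    6 ≤ (Finset.univ.filter fun x => σ x = x).card := by
  have hall : ∀ n ∈ σ.cycleType, n = 2 := by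
    intro n hn
    have h1 : n ∣ 2 := by
      have := Equiv.Perm.dvd_of_mem_cycleType hn
      exact this.trans (orderOf_dvd_of_pow_eq_one (by rw [pow_two]; exact h2))
    have h2' := Equiv.Perm.two_le_of_mem_cycleType hn
    exact le_antisymm (Nat.le_of_dvd (by norm_num) h1) h2'
  have hrep : σ.cycleType = Multiset.replicate (Multiset.card σ.cycleType) 2 :=
    Multiset.eq_replicate_card.mpr hall
  set m := Multiset.card σ.cycleType with hm
  have hsum : σ.cycleType.sum = 2 * m := by
    rw [hrep]; simp [mul_comm]
  have hsupp : σ.support.card = 2 * m := by rw [← Equiv.Perm.sum_cycleType, hsum]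
  have hsign : Equiv.Perm.sign σ = (-1) ^ (2 * m + m) := by
    rw [Equiv.Perm.sign_of_cycleType, hsum]
  have hfix : (Finset.univ.filter fun x => σ x = x).card + σ.support.card = 10 := by
    rw [← hα, ← Finset.card_univ]
    have : σ.support = Finset.univ.filter fun x => ¬ σ x = x := by
      ext x; simp
    rw [this]
    exact Finset.card_filter_add_card_filter_not (s := Finset.univ) (fun x => σ x = x)
  have heven : Even m := by
    rw [hs] at hsign
    by_contra hodd
    rw [Nat.not_even_iff_odd] at hodd
    have h5 : Odd (2 * m + m) := by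
      obtain ⟨k, hk⟩ := hodd
      exact ⟨3 * k + 1, by omega⟩
    rw [h5.neg_one_pow] at hsign
    exact absurd hsign (by decide)
  obtain ⟨k, hk⟩ := heven
  omega

end Cfsg.Agent.Lib.Helper74.O720
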